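import Mathlib
import Cfsg.Agent.Lib.Helper60.OFM.Syl4Defs

/-!
# OFM (S5978), SYL4 leaves [POLYA], [POLYB], [NDTOP]
-/

set_option autoImplicit false

namespace Cfsg.Agent.Lib.Helper75.OFM

open Matrix Cfsg.Agent.Lib.Helper23.OHyp Cfsg.Agent.Lib.Helper60.OFM

universe u

/-- [POLYA] -/
theorem pkgPolyA : PkgPolyA.{u} := by
  intro F _ ι _ _ x U hx p
  induction p using Polynomial.induction_on with
  | C a =>
    intro u hu
    rw [Polynomial.aeval_C, Algebra.algebraMap_eq_smul_one, Matrix.smul_mulVec, Matrix.one_mulVec]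
    exact U.smul_mem a hu
  | add p q hp hq =>
    intro u hu
    rw [map_add, Matrix.add_mulVec]
    exact U.add_mem (hp u hu) (hq u hu)
  | monomial n a ih =>
    intro u hu
    rw [pow_succ, ← mul_assoc, map_mul, Polynomial.aeval_X, ← Matrix.mulVec_mulVec]
    exact ih _ (hx u hu)

/-- [POLYB] -/
theorem pkgPolyB : PkgPolyB.{u} := by
  intro F _ ι _ _ x M U hx hM p
  induction p using Polynomial.induction_on with
  | C a =>
    intro u hu
    rw [Polynomial.aeval_C, Algebra.algebraMap_eq_smul_one, Matrix.smul_mulVec, Matrix.one_mulVec,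
      Matrix.smul_mulVec, Matrix.one_mulVec, Matrix.mulVec_smul]
  | add p q hp hq =>
    intro u hu
    rw [map_add, Matrix.add_mulVec, Matrix.add_mulVec, Matrix.mulVec_add, hp u hu, hq u hu]
  | monomial n a ih =>
    intro u hu
    rw [pow_succ, ← mul_assoc, map_mul, Polynomial.aeval_X, ← Matrix.mulVec_mulVec,
      ← Matrix.mulVec_mulVec, ih _ (hx u hu), hM u hu]

/-- [NDTOP] -/
theorem pkgNdTop : PkgNdTop.{u} := by
  intro F _ ι _ _ Q hQ w _ hw
  obtain ⟨⟨x, hx⟩, ⟨y, hy⟩⟩ := hQ.nondegenerate w hw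
  exact ⟨⟨x, Submodule.mem_top, hx⟩, ⟨y, Submodule.mem_top, hy⟩⟩

end Cfsg.Agent.Lib.Helper75.OFM
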