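import Mathlib
import Cfsg.Agent.Lib.Helper60.OFM.Syl4Defs

/-!
# OFM (S5978), SYL4 leaf [ZPOW]
-/

set_option autoImplicit false

namespace Cfsg.Agent.Lib.Helper75.OFM

open Matrix Cfsg.Agent.Lib.Helper23.OHyp Cfsg.Agent.Lib.Helper60.OFM

universe u

/-- for `q` odd and `m` even, `q ^ m = 2 * ((q - 1) * s) + 1` -/
theorem zpow_arith (q m : ℕ) (hq : Odd q) (hm : Even m) : ∃ s : ℕ, q ^ m = 2 * ((q - 1) * s) + 1 := by
  obtain ⟨t, rfl⟩ := hq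
  obtain ⟨j, rfl⟩ := hm
  have h1 : (2 * t + 1) ^ (j + j) = ((2 * t + 1) ^ 2) ^ j := by rw [← pow_mul]; congr 1; ring
  have h2 : (2 * t + 1) ^ 2 = 2 * ((2 * t + 1 - 1) * (t + 1)) + 1 := by
    have : 2 * t + 1 - 1 = 2 * t := by omega
    rw [this]; ring
  have h3 : (2 * t + 1) ^ 2 ≡ 1 [MOD 2 * (2 * t + 1 - 1)] := by
    rw [h2]
    have : 2 * ((2 * t + 1 - 1) * (t + 1)) + 1 = 2 * (2 * t + 1 - 1) * (t + 1) + 1 := by ring
    rw [this]
    exact (Nat.modEq_iff_dvd' (by omega)).2 ⟨t + 1, by simp⟩ |>.symm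
  have h4 : ((2 * t + 1) ^ 2) ^ j ≡ 1 [MOD 2 * (2 * t + 1 - 1)] := by
    have := h3.pow j
    rwa [one_pow] at this
  have h5 : 1 ≤ ((2 * t + 1) ^ 2) ^ j := Nat.one_le_pow _ _ (by positivity)
  obtain ⟨s, hs⟩ := (Nat.modEq_iff_dvd' h5).1 h4.symm
  refine ⟨s, ?_⟩
  rw [h1]
  have : 2 * ((2 * t + 1 - 1) * s) = 2 * (2 * t + 1 - 1) * s := by ring
  rw [this, ← hs]
  omega

/-- [ZPOW] -/
theorem pkgZPow : PkgZPow.{u} := by
  intro F _ _ hodd ι _ _ a ha ω N hN hsq m hm v hv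
  obtain ⟨s, hs⟩ := zpow_arith (Fintype.card F) m hodd hm
  have key : ∀ k : ℕ, ∀ w ∈ N, (ω ^ (2 * k)) *ᵥ w = a ^ k • w := by
    intro k
    induction k with
    | zero => intro w _; simp
    | succ k ih =>
      intro w hw
      have : 2 * (k + 1) = 2 * k + 1 + 1 := by ring
      rw [this, pow_succ, pow_succ, mul_assoc, ← Matrix.mulVec_mulVec, ← Matrix.mulVec_mulVec,
        hsq w hw, Matrix.mulVec_smul, ih w hw, smul_smul, pow_succ, mul_comm]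
  rw [hs, pow_succ, ← Matrix.mulVec_mulVec, key _ _ (hN v hv), pow_mul,
    FiniteField.pow_card_sub_one_eq_one a ha, one_pow, one_smul]

end Cfsg.Agent.Lib.Helper75.OFM
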